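import Cfsg.Agent.Lib.H94.TCHSA.Chk
set_option Elab.async false
set_option autoImplicit false
set_option maxRecDepth 100000
set_option linter.all false
namespace H94.TCHSA
open H35.TC
theorem r_40 : allB chkP 9 20480 = true := by decide +kernel
theorem r_41 : allB chkP 9 20992 = true := by decide +kernel
theorem r_42 : allB chkP 9 21504 = true := by decide +kernel
theorem r_43 : allB chkP 9 22016 = true := by decide +kernel
theorem r_44 : allB chkP 9 22528 = true := by decide +kernel
theorem r_45 : allB chkP 9 23040 = true := by decide +kernel
theorem r_46 : allB chkP 9 23552 = true := by decide +kernel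
theorem r_47 : allB chkP 9 24064 = true := by decide +kernel
theorem r_48 : allB chkP 9 24576 = true := by decide +kernel
theorem r_49 : allB chkP 9 25088 = true := by decide +kernel
theorem r_50 : allB chkP 9 25600 = true := by decide +kernel
theorem r_51 : allB chkP 9 26112 = true := by decide +kernel
theorem r_52 : allB chkP 9 26624 = true := by decide +kernel
theorem r_53 : allB chkP 9 27136 = true := by decide +kernel
theorem r_54 : allB chkP 9 27648 = true := by decide +kernel
theorem r_55 : allB chkP 9 28160 = true := by decide +kernel
theorem r_56 : allB chkP 9 28672 = true := by decide +kernel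
theorem r_57 : allB chkP 9 29184 = true := by decide +kernel
theorem r_58 : allB chkP 9 29696 = true := by decide +kernel
theorem r_59 : allB chkP 9 30208 = true := by decide +kernel
end H94.TCHSA
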